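import Cfsg.Agent.TI.V2
import Cfsg.Agent.H7.TI
import Cfsg.Agent.H6.Stab

/-! The group generated by the two shear groups, and `P = O₂(N(V))`. -/

set_option autoImplicit false
set_option linter.unusedSectionVars false

namespace TI

open Cfsg Subgroup FT H4 GW MatrixGroups
open H5 (im mem_im mem_im_of_mem)
open scoped commutatorElement

variable {G : Type*} [Group G] [Finite G] {U V W A B : Subgroup G} {a b c d g u v w x y z : G}

namespace Pr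

variable (h : Pr V U)
include h

theorem nH : Pv V ⊔ Pv U ≤ Nor (V ⊔ U) := sup_le h.nW (sup_comm U V ▸ h.symm.nW)

theorem trans (ha : a ∈ V) (a1 : a ≠ 1) (hb : b ∈ V) (b1 : b ≠ 1) :
    ∃ m ∈ Nor V, m * a * m⁻¹ = b := by
  obtain ⟨u, hu, u1⟩ := h.tv'.ex
  obtain ⟨x, -, e1⟩ := h.surjP hu u1 ha
  obtain ⟨x', -, e2⟩ := h.surjP hu u1 hb
  obtain ⟨y, -, e3⟩ := h.symm.surjP ha a1 hu
  obtain ⟨y', -, e4⟩ := h.symm.surjP hb b1 hu
  have e : y'⁻¹ * x' * x⁻¹ * y * a * (y'⁻¹ * x' * x⁻¹ * y)⁻¹ = b := by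
    calc _ = y'⁻¹ * (x' * (x⁻¹ * (y * a * y⁻¹) * x) * x'⁻¹) * y' := by group
      _ = _ := by
        rw [e3, h.uv hu ha, ← e1, show x⁻¹ * (x * u * x⁻¹) * x = u by group, e2, ← h.uv hu hb, ← e4]
        group
  exact ⟨_, h.tv.nor_of ha a1 (e ▸ hb), e⟩

theorem P_eq : Pv V = Qv V := by
  refine inf_eq_left.mpr (le_cen_symm fun v hv => ?_)
  obtain ⟨z, hz, z1, -, hc⟩ := H7.exists_fixed_order_p (p := 2) (two_Pv.to_le h.tv.le_P)
    (isPGroup_pCoreIn 2 (Nor V)) (pCoreIn_le _ _) h.tv.ne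
  by_cases v1 : v = 1
  · exact v1 ▸ one_mem _
  obtain ⟨m, hm, rfl⟩ := h.trans hz z1 hv v1
  exact cmem (mcen (le_normalizer_pCoreIn _ _ hm))
    (GW.cen.mpr fun x hx => (hc x (mem_sup_right hx)).symm)

theorem cenW' (hx : x ∈ Pv V) : x ∈ Cen (V ⊔ U) ↔ x ∈ Cen U :=
  ⟨fun c => GW.cen.mpr fun u hu => GW.cen.mp c u (mem_sup_right hu), fun c =>
    le_cen_symm (sup_le (le_cen_symm (zpowers_le.mpr (Pv_le_cen hx)))
      (le_cen_symm (zpowers_le.mpr c))) (mem_zpowers x)⟩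

/-- the braid relation at a vector of `V` -/
theorem braid (hx : x ∈ Pv V) (hy : y ∈ Pv U) (y1 : y ∉ Cen V) (hv : v ∈ V)
    (e : x * y * x * v * (x * y * x)⁻¹ = y * x * y * v * (y * x * y)⁻¹) :
    ∃ u ∈ U, y * v * y⁻¹ = u * v ∧ x * u * x⁻¹ = v * u ∧ x * y * x * v * (x * y * x)⁻¹ = u := by
  obtain ⟨u, hu, e1⟩ := h.tv'.cj hy (h.symm.le hv)
  obtain ⟨a, ha, e2⟩ := h.tv.cj hx (h.le hu)
  have xv : x * v * x⁻¹ = v := by rw [pc hx hv, mul_inv_cancel_right]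
  have e3 : x * y * x * v * (x * y * x)⁻¹ = a * u * v := by
    rw [show x * y * x * v * (x * y * x)⁻¹ = x * (y * (x * v * x⁻¹) * y⁻¹) * x⁻¹ by group, xv, e1,
      ← conj_mul, e2, xv]
  have e4 : y * x * y * v * (y * x * y)⁻¹ = y * (a * u * v) * y⁻¹ := by
    rw [show y * x * y * v * (y * x * y)⁻¹ = y * (x * (y * v * y⁻¹) * x⁻¹) * y⁻¹ by group, e1,
      ← conj_mul (b := x), e2, xv]
  obtain rfl : a = v := by
    by_contra c
    refine y1 (h.symm.cen_of hy (mul_mem ha hv) (fun e => c (by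
      rw [eq_inv_of_mul_eq_one_left e, h.tv.inv hv])) (mul_right_cancel (b := u) ?_))
    rw [e3, e4, mul_assoc a, h.uv hu hv, ← mul_assoc, eq_mul_inv_iff_mul_eq] at e
    rw [mul_assoc, ← e, mul_assoc _ u, ← pc hy hu, mul_assoc _ y]
  exact ⟨u, hu, e1, e2, by rw [e3, mul_assoc, h.uv hu hv, ← mul_assoc, h.tv.sq a hv, one_mul]⟩

theorem braid' (hx : x ∈ Pv V) (hy : y ∈ Pv U) (e : conjS x U = conjS y V) (hv : v ∈ V) :
    x * y * x * v * (x * y * x)⁻¹ = y * x * y * v * (y * x * y)⁻¹ := by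
  obtain ⟨u, hu, e1⟩ := h.tv'.cj hy (h.symm.le hv)
  obtain ⟨b, hb, e2⟩ : ∃ b ∈ U, x * b * x⁻¹ = u * v :=
    ⟨_, mem_conjS.mp (e.ge (conj_mem_conjS hv)), by rw [← e1]; group⟩
  obtain ⟨a, ha, e3⟩ := h.tv.cj hx (h.le hb)
  obtain rfl : b = u := by
    refine mul_inv_eq_one.mp (h.dj (mul_mem hb (inv_mem hu))
      (H5.mem_of_eq (mul_mem (inv_mem ha) hv) ?_))
    rw [inv_mul_eq_iff_eq_mul, ← mul_assoc, ← e3, e2, h.uv hu hv, mul_inv_cancel_right]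
  have xv : x * v * x⁻¹ = v := by rw [pc hx hv, mul_inv_cancel_right]
  have e4 : x * (b * v) * x⁻¹ = b := by
    rw [← conj_mul, e2, xv, mul_assoc, h.tv.sq v hv, mul_one]
  rw [show x * y * x * v * (x * y * x)⁻¹ = x * (y * (x * v * x⁻¹) * y⁻¹) * x⁻¹ by group,
    show y * x * y * v * (y * x * y)⁻¹ = y * (x * (y * v * y⁻¹) * x⁻¹) * y⁻¹ by group, xv, e1, e4,
    pc hy hb, mul_inv_cancel_right]

variable {X : Type*} [Group X] [Finite X] {f : ↥(Pv V ⊔ Pv U) →* X}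
  (hk : f.ker = (Cen (V ⊔ U)).subgroupOf _)
include hk

omit h in
theorem f_eq {a b : ↥(Pv V ⊔ Pv U)} :
    f a = f b ↔ ∀ w ∈ V ⊔ U, a * w * (a : G)⁻¹ = b * w * (b : G)⁻¹ := by
  rw [eq_comm, ← inv_mul_eq_one, ← map_inv, ← map_mul, H5.map_eq_one_iff_of_ker hk, GW.cen]
  refine forall₂_congr fun w _ => ?_
  rw [coe_mul, coe_inv, mul_assoc, inv_mul_eq_iff_eq_mul, mul_inv_eq_iff_eq_mul]
  simp only [mul_assoc]

theorem r1 : R1 (im f (Pv V)) (im f (Pv U)) := by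
  have one : ∀ {a : ↥(Pv V ⊔ Pv U)}, f a = 1 ↔ (a : G) ∈ Cen (V ⊔ U) := H5.map_eq_one_iff_of_ker hk
  have one' : ∀ {a : ↥(Pv V ⊔ Pv U)}, (a : G) ∈ Pv U → (f a = 1 ↔ (a : G) ∈ Cen V) := fun ha => by
    rw [one, sup_comm, h.symm.cenW' ha]
  have ext : ∀ {a b : ↥(Pv V ⊔ Pv U)}, (∀ w ∈ V, a * w * (a : G)⁻¹ = b * w * (b : G)⁻¹) →
      (∀ w ∈ U, a * w * (a : G)⁻¹ = b * w * (b : G)⁻¹) → f a = f b := fun h1 h2 =>
    (f_eq hk).mpr fun w hw => by
      obtain ⟨v, hv, u, hu, rfl⟩ := h.memW.mp hw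
      rw [← conj_mul, ← conj_mul, h1 v hv, h2 u hu]
  refine ⟨?_, fun e => ?_, ?_, ?_, ?_⟩
  · rintro _ ⟨x, hx, rfl⟩
    rw [← map_mul, one]
    exact le_cen_symm (h.W_le.trans Pv_le_cen) (h.tv.sqP hx)
  · obtain ⟨u, hu, u1⟩ := h.tv'.ex
    exact u1 (h.dj hu (h.tv.ZP (h.le hu) fun x hx => (GW.cen.mp ((H5.im_eq_bot_iff hk
      le_sup_left).mp e hx) u (mem_sup_right hu)).symm))
  · rintro _ ⟨x, hx, rfl⟩ x1
    have hx : (x : G) ∈ Pv V := hx
    obtain ⟨u, hu, u1⟩ := h.tv'.ex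
    have m := conj_mem_conjS (g := (x : G)) hu
    obtain ⟨y, hy, e⟩ := h.symm.spread (sup_comm V U ▸ cmem (h.nW hx) (mem_sup_right hu)) fun c =>
      x1 (one.mpr ((h.cenW' hx).mpr (h.cen_of_nor hx (h.tv'.nor_of hu u1 c))))
    have e1 : conjS (y : G) V = conjS (x : G) U :=
      (h.conj_nor (Pv_le_nor hx)).eq_of ⟨y, rfl⟩ e m (by simpa using u1)
    have e2 : conjS (x * y * x : G) V = U := by
      rw [← conjS_conjS, ← conjS_conjS, mem_normalizer_iff_conjS.mp (Pv_le_nor hx), e1,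
        conjS_conjS, mem_normalizer_iff_conjS.mp (mcnor (h.symm.le.trans Pv_le_cen (h.tv.sqP hx)))]
    refine ⟨f ⟨y, mem_sup_right hy⟩, mem_im_of_mem _ hy, ?_, ?_⟩
    · simp only [← map_mul]
      exact ext (fun w hw => h.braid' hx hy e1.symm hw) fun w hw =>
        (h.symm.braid' hy hx e1 hw).symm
    · simp only [← map_mul]
      refine (H5.im_map_conj (f := f) _ (x * ⟨y, mem_sup_right hy⟩ * x).2).symm.trans (congrArg _ ?_)
      exact (conj_Pv _ V).trans (congrArg Pv e2)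
  · rintro _ ⟨x, hx, rfl⟩ hn
    have hx : (x : G) ∈ Pv V := hx
    refine one.mpr ((h.cenW' hx).mpr (GW.cen.mpr fun u hu => ?_))
    obtain ⟨v, hv, e⟩ := h.tv.cj hx (h.le hu)
    suffices v = 1 by rwa [this, one_mul, mul_inv_eq_iff_eq_mul] at e
    refine h.dj (h.tv'.ZP (h.symm.le hv) fun y hy => ?_) hv
    obtain ⟨z, hz, e1⟩ := cmem' hn (mem_im_of_mem (mem_sup_right hy) hy)
    have := (f_eq hk (b := x⁻¹ * ⟨y, mem_sup_right hy⟩ * x)).mp (by simpa using e1) u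
      (mem_sup_right hu)
    rw [pc (show (z : G) ∈ Pv U from hz) hu, mul_inv_cancel_right] at this
    have e2 : y * (v * u) * y⁻¹ = v * u := by
      rw [← e]; nth_rewrite 2 [this]; simp only [coe_mul, coe_inv]; group
    rw [← conj_mul, pc hy hu, mul_inv_cancel_right, mul_left_inj] at e2
    exact (mul_inv_eq_iff_eq_mul.mp e2).symm
  · rintro _ _ ⟨-, _, ⟨x, hx, rfl⟩, x1, _, ⟨y, hy, rfl⟩, rfl, e1⟩
      ⟨-, _, ⟨x', hx', rfl⟩, x1', _, ⟨y', hy', rfl⟩, rfl, e2⟩ e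
    have k : ∀ {x y : ↥(Pv V ⊔ Pv U)}, (x : G) ∈ Pv V → (y : G) ∈ Pv U → f x ≠ 1 →
        f x * f y * f x = f y * f x * f y → (∀ v ∈ V, ∃ u ∈ U, y * v * (y : G)⁻¹ = u * v ∧
          x * u * (x : G)⁻¹ = v * u ∧ x * y * x * v * (x * y * x : G)⁻¹ = u) ∧
        ∀ u ∈ U, ∃ v ∈ V, x * u * (x : G)⁻¹ = v * u ∧
          y * v * (y : G)⁻¹ = u * v ∧ x * y * x * u * (x * y * x : G)⁻¹ = v := by
      intro x y hx hy x1 e
      have e' := (f_eq hk (a := x * y * x) (b := y * x * y)).mp (by simpa using e)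
      refine ⟨fun v hv => h.braid hx hy (fun c => x1 ?_) hv (e' v (mem_sup_left hv)),
        fun u hu => ?_⟩
      · simpa [(one' hy).mpr c] using e
      · have := e' u (mem_sup_right hu)
        obtain ⟨v, hv, h1, h2, h3⟩ := h.symm.braid hy hx
          (fun c => x1 (one.mpr ((h.cenW' hx).mpr c))) hu this.symm
        exact ⟨v, hv, h1, h2, this.trans h3⟩
    obtain ⟨k1, k2⟩ := k hx hy x1 e1
    obtain ⟨k3, k4⟩ := k hx' hy' x1' e2
    have e' := (f_eq hk (a := x * y * x * (x' * y' * x')) (b := x' * y' * x' * (x * y * x))).mp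
      (by simpa using e)
    obtain ⟨v, hv, v1, u, hu, h1, h2, h3, h4⟩ : ∃ v ∈ V, v ≠ 1 ∧ ∃ u ∈ U,
        y * v * (y : G)⁻¹ = u * v ∧ x * u * (x : G)⁻¹ = v * u ∧
        y' * v * (y' : G)⁻¹ = u * v ∧ x' * u * (x' : G)⁻¹ = v * u := by
      obtain ⟨v, hv, v1⟩ := h.tv.ex
      obtain ⟨u, hu, h1, h2, h3⟩ := k1 v hv
      obtain ⟨u', hu', h4, h5, h6⟩ := k3 v hv
      by_cases c : u = u'
      · exact ⟨v, hv, v1, u, hu, h1, h2, c ▸ h4, c ▸ h5⟩
      obtain ⟨a, ha, h7, h8, h9⟩ := k4 u hu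
      have h0 : x * y * x * u' * (x * y * x : G)⁻¹ = a := by
        rw [← h6, ← h9, ← h3]
        refine Eq.trans (by simp only [coe_mul]; group)
          ((e' v (mem_sup_left hv)).trans (by simp only [coe_mul]; group))
      obtain ⟨b, hb, h10, h11, h12⟩ := k2 u' hu'
      obtain rfl : a = b := h0.symm.trans h12
      have cv : ∀ {p q : G}, p ∈ U → q ∈ U → ∀ {r s : G}, r ∈ V → s ∈ V →
          p * r * (q * s) = p * q * (r * s) := fun {p q} _ hq {r s} hr _ => by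
        rw [mul_assoc, ← mul_assoc r, ← h.uv hq hr]; group
      have cv' : ∀ {p q : G}, p ∈ U → q ∈ U → ∀ {r s : G}, r ∈ V → s ∈ V →
          r * p * (s * q) = r * s * (p * q) := fun {p q} hp _ {r s} _ hs => by
        rw [mul_assoc, ← mul_assoc p, h.uv hp hs]; group
      refine ⟨v * a, mul_mem hv ha, fun e => c ?_, u * u', mul_mem hu hu', ?_, ?_, ?_, ?_⟩
      · obtain rfl : v = a := by rw [eq_inv_of_mul_eq_one_left e, h.tv.inv ha]
        exact mul_right_cancel (h1.symm.trans h11)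
      · rw [← conj_mul, h1, h11, cv hu hu' hv ha]
      · rw [← conj_mul, h2, h10, cv' hu hu' hv ha]
      · rw [← conj_mul, h4, h8, cv hu' hu hv ha, h.tv'.comm hu hu']
      · rw [← conj_mul, h7, h5, cv' hu hu' ha hv, h.tv.comm hv ha]
    have u1 : u ≠ 1 := fun e => v1 (by simpa [e] using h2.symm)
    have f1 : f x = f x' := by
      rw [eq_comm, ← inv_mul_eq_one, ← map_inv, ← map_mul, one]
      exact (h.cenW' (mul_mem (inv_mem hx') hx)).mpr (h.cen_of' hx hx' hu u1 (h2.trans h4.symm))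
    have f2 : f y = f y' := by
      rw [eq_comm, ← inv_mul_eq_one, ← map_inv, ← map_mul, one' (a := y'⁻¹ * y) (mul_mem (inv_mem hy') hy)]
      exact h.symm.cen_of' hy hy' hv v1 (h1.trans h3.symm)
    rw [f1, f2]

theorem card_im : Nat.card (im f (Pv V)) = Nat.card V := by
  obtain ⟨B, hB, nc⟩ := h.exB
  rw [← hB.card, ← H5.card_im_of_disjoint hk (hB.le.trans le_sup_left) (eq_bot_iff.mpr
    fun b hb => nc b hb.1 ((h.cenW' (hB.le hb.1)).mp hb.2))]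
  refine congrArg (fun A : Subgroup X => Nat.card A) (le_antisymm ?_ (H5.im_mono hB.le))
  rintro _ ⟨x, hx, rfl⟩
  obtain ⟨b, hb, c, hc, e⟩ := h.dec hB nc (show (x : G) ∈ Pv V from hx)
  refine H5.mem_of_eq (mem_im_of_mem (mem_sup_left (hB.le hb)) hb) ?_
  rw [← inv_mul_eq_one, ← map_inv, ← map_mul, H5.map_eq_one_iff_of_ker hk]
  exact H5.mem_of_eq ((h.cenW' hc.1).mpr hc.2) (by simp [e])

theorem sl2 (hf : Function.Surjective f) : ∃ (F : Type) (_ : Field F) (_ : Fintype F),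
    Fintype.card F = Nat.card V ∧ Nonempty (X ≃* SL(2, F)) := by
  obtain ⟨F, _, _, h1, ⟨e⟩⟩ := (h.r1 hk).sl2
  rw [← H5.im_sup le_sup_left le_sup_right, H5.im_self hf] at e
  exact ⟨F, _, _, h1.trans (h.card_im hk), ⟨topEquiv.symm.trans e⟩⟩

end Pr

end TI
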