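import Cfsg.Agent.BS.L4
import Cfsg.Agent.GW.L1
import Cfsg.Agent.L.ZStar
import Cfsg.Agent.H4.KM1

/-! Rank one groups with elementary abelian root 2-subgroups. -/

set_option autoImplicit false
set_option linter.unusedSectionVars false

namespace TI

open Cfsg Subgroup FT H4 GW MatrixGroups

variable {X : Type*} [Group X] [Finite X] {A B : Subgroup X} {a b t u v : X}

/-- `t` is one of the standard elements interchanging `A` and `B` -/
def Sw (A B : Subgroup X) (t : X) : Prop :=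
  conjS t A = B ∧ ∃ u ∈ A, u ≠ 1 ∧ ∃ v ∈ B, t = u * v * u ∧ t = v * u * v

structure R1 (A B : Subgroup X) : Prop where
  sq : ∀ u ∈ A, u * u = 1
  ne : A ≠ ⊥
  ex : ∀ u ∈ A, u ≠ 1 → ∃ v ∈ B, u * v * u = v * u * v ∧ conjS (u * v * u) A = B
  ti : ∀ u ∈ A, u ∈ Nor B → u = 1
  iso : ∀ a b, Sw A B a → Sw A B b → a * b = b * a → a = b

namespace R1

variable (h : R1 A B)
include h

theorem sqB (ht : Sw A B t) (hv : v ∈ B) : v * v = 1 := by
  have := h.sq _ (mem_conjS.mp (ht.1.ge hv))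
  rw [show v * v = t * (t⁻¹ * v * t * (t⁻¹ * v * t)) * t⁻¹ by group, this, mul_one, mul_inv_cancel]

theorem tt (ht : Sw A B t) : t * t = 1 := by
  obtain ⟨u, hu, -, v, hv, e, -⟩ := ht.2
  rw [e, show u * v * u * (u * v * u) = u * v * (u * u) * v * u by group, h.sq u hu, mul_one,
    mul_assoc u, h.sqB ht hv, mul_one, h.sq u hu]

theorem inv (ht : Sw A B t) : t⁻¹ = t := inv_eq_of_mul_eq_one_right (h.tt ht)

theorem swB (ht : Sw A B t) : conjS t B = A := by
  rw [← ht.1, conjS_conjS, h.tt ht, conjS_one]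

theorem ne_one (ht : Sw A B t) : t ≠ 1 := by
  rintro rfl
  obtain ⟨u, hu, u1, -⟩ := ht.2
  exact u1 (h.ti u hu (le_normalizer (by rwa [← ht.1, conjS_one])))

theorem conj (ha : Sw A B a) (hb : Sw A B b) : Sw A B (a * b * a⁻¹) := by
  obtain ⟨u, hu, u1, v, hv, e1, e2⟩ := hb.2
  refine ⟨by rw [← conjS_conjS, ← conjS_conjS, h.inv ha, ha.1, h.swB hb, ha.1], a * v * a⁻¹,
    (h.swB ha).le (conj_mem_conjS hv), fun e => u1 ?_, a * u * a⁻¹, ha.1.le (conj_mem_conjS hu),
    by rw [e2]; group, by rw [e1]; group⟩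
  obtain rfl : v = 1 := by simpa using e
  simpa using e1.symm.trans e2

theorem conj_cl {g : X} (hg : g ∈ closure {t | Sw A B t}) : ∀ b, Sw A B b → Sw A B (g * b * g⁻¹) := by
  refine closure_induction_left (fun b hb => by simpa using hb) (fun x hx y _ ih b hb => ?_)
    (fun x hx y _ ih b hb => ?_) hg
  · exact (show x * (y * b * y⁻¹) * x⁻¹ = x * y * b * (x * y)⁻¹ by group) ▸ h.conj hx (ih b hb)
  · rw [h.inv hx]
    exact (show x * (y * b * y⁻¹) * x⁻¹ = x * y * b * (x * y)⁻¹ by group) ▸ h.conj hx (ih b hb)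

theorem mul_mem_Oo (ha : Sw A B a) (hb : Sw A B b) : b * a ∈ Oo (closure {t | Sw A B t}) := by
  have m : ∀ {t}, Sw A B t → t ∈ closure {t | Sw A B t} := fun ht => subset_closure ht
  have o : Odd (orderOf (b * a)) := by
    by_contra c
    obtain ⟨n, h1, -, h2, -⟩ := BS.exists_central_inv (h.tt hb) (h.tt ha) c
    have e : ∀ k : ℕ, b * ((b * a) ^ k)⁻¹ = (b * a) ^ k * b := fun k => by
      rw [← BS.inv_conj_pow (h.tt hb) (x := b * a) (by
        rw [mul_inv_rev, h.inv ha, h.inv hb, ← mul_assoc, h.tt hb, one_mul]), ← mul_assoc,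
        ← mul_assoc, h.tt hb, one_mul]
    have s : Sw A B ((b * a) ^ n * b) := by
      obtain ⟨k, rfl | rfl⟩ := Nat.even_or_odd' n
      · have := h.conj_cl (pow_mem (mul_mem (m hb) (m ha)) k) b hb
        rwa [mul_assoc, e, ← mul_assoc, ← pow_add, ← two_mul] at this
      · have := h.conj_cl (mul_mem (pow_mem (mul_mem (m hb) (m ha)) k) (m hb)) a ha
        rwa [mul_inv_rev, h.inv hb, show (b * a) ^ k * b * a * (b * ((b * a) ^ k)⁻¹) =
          (b * a) ^ k * (b * a) * (b * ((b * a) ^ k)⁻¹) by group, e, ← pow_succ, ← mul_assoc,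
          ← pow_add, show k + 1 + k = 2 * k + 1 by ring] at this
    exact h1 (by simpa using h.iso _ _ s hb (by rw [← mul_assoc, ← h2]))
  obtain ⟨n, -, -, e⟩ := BS.exists_swap (h.tt ha) (h.tt hb) o
  have h1 : InZStar 2 (⟨a, m ha⟩ : closure {t | Sw A B t}) :=
    L.zstar' (by rw [← orderOf_coe]; exact BS.orderOf_eq_two (h.ne_one ha) (h.tt ha))
      fun g hc => Subtype.ext (h.iso _ _ (h.conj_cl g.2 a ha) ha (congrArg Subtype.val hc.eq).symm)
  exact ⟨_, h1 ⟨_, pow_mem (mul_mem (m hb) (m ha)) n⟩, by simp [e, h.inv ha]⟩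

theorem a1 (ht : Sw A B t) : ∃ H D, BS.A1 (A ⊔ zpowers t) H A D t := by
  obtain ⟨D, md⟩ : ∃ D : Subgroup X, ∀ {x}, x ∈ D ↔ x ∈ A ⊔ zpowers t ∧
      x ∈ Oo (closure {t | Sw A B t}) ∧ x ∈ Nor A ∧ x ∈ Nor B :=
    ⟨(A ⊔ zpowers t) ⊓ (Oo (closure {t | Sw A B t}) ⊓ (Nor A ⊓ Nor B)), Iff.rfl⟩
  have DA : D ≤ Nor A := fun _ hx => (md.mp hx).2.2.1
  have mem : ∀ {x}, x ∈ A ⊔ D ↔ ∃ u ∈ A, ∃ d ∈ D, u * d = x :=
    H7.mem_sup_of_le_normalizer_left DA
  have od : Odd (Nat.card D) := odd_of_le (fun _ hx => (md.mp hx).2.1) (odd_Oo _)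
  have HA : A ⊔ D ≤ Nor A := sup_le le_normalizer DA
  have tL : t ∈ A ⊔ zpowers t := mem_sup_right (mem_zpowers t)
  have tD : ∀ d ∈ D, t * d * t⁻¹ ∈ D := fun d hd => by
    obtain ⟨h1, h2, h3, h4⟩ := md.mp hd
    refine md.mpr ⟨mul_mem (mul_mem tL h1) (inv_mem tL), cmem (lOo _ (subset_closure ht)) h2, ?_, ?_⟩
    · rw [← h.swB ht, Nor, ← conjS_normalizer]; exact conj_mem_conjS h4
    · rw [← ht.1, Nor, ← conjS_normalizer]; exact conj_mem_conjS h3
  have BL : B ≤ A ⊔ zpowers t := ht.1 ▸ fun x hx =>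
    H5.mem_of_eq (mul_mem (mul_mem tL (mem_sup_left (mem_conjS.mp hx))) (inv_mem tL)) (by group)
  have tA : t ∉ A ⊔ D := fun c => by
    obtain ⟨u, hu, u1, -⟩ := ht.2
    exact u1 (h.ti u hu (le_normalizer (by rwa [← ht.1, mem_normalizer_iff_conjS.mp (HA c)])))
  obtain ⟨s, hs, s1⟩ := (bot_or_exists_ne_one A).resolve_left h.ne
  refine ⟨A ⊔ D, D, sup_le le_sup_left fun _ hx => (md.mp hx).1, tL, tA,
    h.tt ht, le_antisymm (le_inf le_sup_right fun d hd => mem_conjS.mpr (mem_sup_right ?_))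
      fun x hx => ?_, ⟨rfl, ?_, DA⟩, BS.even_of_inv hs s1 (h.sq s hs), od, fun g hg => ?_⟩
  · simpa [h.inv ht] using tD d hd
  · obtain ⟨u, hu, d, hd, rfl⟩ := mem.mp hx.1
    have := conjS_mono t HA hx.2
    rw [conjS_normalizer, ht.1] at this
    rwa [h.ti u hu ((mul_mem_cancel_right (md.mp hd).2.2.2).mp this), one_mul]
  · exact eq_bot_iff.mpr fun x hx => h.ti x hx.1 (md.mp hx.2).2.2.2
  · rw [← or_iff_not_imp_left]
    have tt : ∀ x, t * (t * x) = x := fun x => by rw [← mul_assoc, h.tt ht, one_mul]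
    have key : ∀ g, (g ∈ A ⊔ D ∨ ∃ x ∈ A ⊔ D, ∃ y ∈ A ⊔ D, g = x * t * y) →
        (t * g ∈ A ⊔ D ∨ ∃ x ∈ A ⊔ D, ∃ y ∈ A ⊔ D, t * g = x * t * y) := by
      rintro g (hg | ⟨x, hx, y, hy, rfl⟩)
      · exact Or.inr ⟨1, one_mem _, g, hg, by rw [one_mul]⟩
      obtain ⟨u, hu, d, hd, rfl⟩ := mem.mp hx
      have d1 := mul_mem (mem_sup_right (tD d hd)) hy
      by_cases u1 : u = 1
      · exact Or.inl (H5.mem_of_eq d1 (by rw [u1, h.inv ht]; group))
      obtain ⟨v, hv, e1, e2⟩ := h.ex u hu u1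
      have s : Sw A B (u * v * u) := ⟨e2, u, hu, u1, v, hv, rfl, e1⟩
      have v1 : t * v * t⁻¹ ∈ A ⊔ D := mem_sup_left ((h.swB ht).le (conj_mem_conjS hv))
      have d2 : t * (u * v * u) ∈ D :=
        md.mpr ⟨mul_mem tL (mul_mem (mul_mem (mem_sup_left hu) (BL hv)) (mem_sup_left hu)),
          h.mul_mem_Oo s ht, mem_normalizer_iff_conjS.mpr (by rw [← conjS_conjS, e2, h.swB ht]),
          mem_normalizer_iff_conjS.mpr (by rw [← conjS_conjS, h.swB s, ht.1])⟩
      refine Or.inr ⟨_, mul_mem v1 (mem_sup_right d2), _, mul_mem v1 d1, ?_⟩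
      have vv : ∀ x, v * (v * x) = x := fun x => by rw [← mul_assoc, h.sqB ht hv, one_mul]
      simp only [e1, h.inv ht, mul_assoc, tt, vv]
    have k1 : ∀ x ∈ A ⊔ D, ∀ g, (g ∈ A ⊔ D ∨ ∃ x ∈ A ⊔ D, ∃ y ∈ A ⊔ D, g = x * t * y) →
        (x * g ∈ A ⊔ D ∨ ∃ a ∈ A ⊔ D, ∃ y ∈ A ⊔ D, x * g = a * t * y) := by
      rintro x hx g (hg | ⟨a, ha, b, hb, rfl⟩)
      · exact Or.inl (mul_mem hx hg)
      · exact Or.inr ⟨_, mul_mem hx ha, b, hb, by simp only [mul_assoc]⟩
    rw [sup_eq_closure] at hg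
    refine closure_induction_left (Or.inl (one_mem _)) (fun x hx y _ ih => ?_)
      (fun x hx y _ ih => ?_) hg
    all_goals
      rcases hx with hx | hx
      · exact k1 _ (mem_sup_left (by simpa using hx)) y ih
      · rcases (mem_zpowers_invol (h.tt ht)).mp hx with rfl | rfl
        · simpa using ih
        · simpa [h.inv ht] using key y ih

theorem sl2 : ∃ (F : Type) (_ : Field F) (_ : Fintype F), Fintype.card F = Nat.card A ∧
    Nonempty (↥(A ⊔ B) ≃* SL(2, F)) := by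
  obtain ⟨s, hs, s1⟩ := (bot_or_exists_ne_one A).resolve_left h.ne
  obtain ⟨v, hv, e1, e2⟩ := h.ex s hs s1
  have ht : Sw A B (s * v * s) := ⟨e2, s, hs, s1, v, hv, rfl, e1⟩
  have ss : ∀ x, s * (s * x) = x := fun x => by rw [← mul_assoc, h.sq s hs, one_mul]
  have tst : s * v * s * s * (s * v * s) = s * (s * v * s) * s := by
    rw [show s * v * s * s * (s * v * s) = s * (v * (s * s * s) * v) * s by group, h.sq s hs,
      one_mul, ← e1]
  generalize s * v * s = t at *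
  obtain ⟨H, D, a⟩ := h.a1 ht
  have e : A ⊔ zpowers t = A ⊔ B := by
    refine le_antisymm (sup_le le_sup_left (zpowers_le.mpr ?_)) (sup_le le_sup_left fun x hx => ?_)
    · obtain ⟨u, hu, -, v, hv, e, -⟩ := ht.2
      exact e ▸ mul_mem (mul_mem (mem_sup_left hu) (mem_sup_right hv)) (mem_sup_left hu)
    · exact H5.mem_of_eq (mul_mem (mul_mem a.t_mem (mem_sup_left (mem_conjS.mp (ht.1.ge hx))))
        (inv_mem a.t_mem)) (by group)
  suffices ∃ (F : Type) (_ : Field F) (_ : Fintype F) (S : BS.SL2Data X F),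
      Function.Injective S.u ∧ S.u.range = A ∧ Function.Injective S.ρ ∧
        S.ρ.range = A ⊔ zpowers t by
    obtain ⟨F, _, _, S, h1, h2, h3, h4⟩ := this
    refine ⟨F, _, inferInstance, ?_, ⟨((MonoidHom.ofInjective h3).trans
      (MulEquiv.subgroupCongr (h4.trans e))).symm⟩⟩
    rw [← h2, ← Nat.card_congr (MonoidHom.ofInjective h1).toEquiv, Nat.card_eq_fintype_card,
      Fintype.card_multiplicative]
  by_cases c : BS.A3 A
  · have q : BS.Q0 A = A := le_antisymm BS.A1.Q0_le_Q fun x hx => BS.A1.mem_Q0_of hx (h.sq x hx)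
    obtain ⟨F, _, _, _, S, -, h1, h2, -, -, -, h3, h4, -⟩ := a.exists_SL2 c (s := s)
      ⟨hs, s1, h.sq s hs, s, hs, by rw [tst, inv_eq_of_mul_eq_one_right (h.sq s hs)]⟩ (by
        have := Fact.mk Nat.prime_three
        refine orderOf_eq_prime ?_ fun e => a.t_nmem (a.Q_le (eq_inv_of_mul_eq_one_right e ▸
          inv_mem hs))
        rw [show (s * t) ^ 3 = s * (t * s * t) * s * t by simp only [pow_succ, pow_zero]; group, tst]
        simp only [mul_assoc, ss, h.tt ht])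
    refine ⟨F, _, inferInstance, S, h1, h2.trans q, h3, h4.trans ?_⟩
    rw [q]
    exact le_antisymm (sup_le (sup_le le_sup_left a.Kg_le_Fg) le_sup_right)
      (sup_le_sup_right le_sup_left _)
  · have o : orderOf s = 2 := BS.orderOf_eq_two s1 (h.sq s hs)
    let u : Multiplicative (ZMod 2) →* X := AddMonoidHom.toMultiplicativeLeft
      (ZMod.lift 2 ⟨zmultiplesHom _ (Additive.ofMul s), by
        simp [← ofMul_zpow, zpow_ofNat, ← ofMul_pow, pow_two, h.sq s hs]⟩)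
    have u1 : u (Multiplicative.ofAdd 1) = s := by
      have := ZMod.lift_coe 2 ⟨zmultiplesHom _ (Additive.ofMul s), by
        simp [← ofMul_zpow, zpow_ofNat, ← ofMul_pow, pow_two, h.sq s hs]⟩ 1
      simpa [u] using congrArg Additive.toMul this
    have cs : ∀ z : Multiplicative (ZMod 2), z = 1 ∨ z = Multiplicative.ofAdd 1 := by decide
    have ui : Function.Injective u := (injective_iff_map_eq_one u).mpr fun z hz =>
      (cs z).resolve_right fun e => s1 (by rw [← u1, ← e, hz])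
    have ur : u.range = A := by
      refine le_antisymm ?_ fun x hx => ?_
      · rintro _ ⟨z, rfl⟩
        rcases cs z with rfl | rfl
        · simp
        · exact u1 ▸ hs
      · by_contra c'
        exact c ⟨s, hs, x, hx, s1, fun e => c' (e ▸ one_mem _), fun e => c' ⟨_, u1.trans e⟩,
          h.sq s hs, h.sq x hx⟩
    let S : BS.SL2Data X (ZMod 2) := ⟨u, 1, t, rfl, h.tt ht, fun a z => by
      simp [Subsingleton.elim a 1], fun a => by simp [h.tt ht], by rw [u1, tst]⟩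
    refine ⟨ZMod 2, _, inferInstance, S, ui, ur, S.ρ_injective (H := H) (fun z => a.Q_le (ur.le ⟨_, rfl⟩))
      (fun _ => one_mem _) a.t_nmem ui, ?_⟩
    rw [S.range_ρ, ur, MonoidHom.range_one, sup_bot_eq]

end R1

end TI
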