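import Cfsg.Agent.TI.R1
import Cfsg.Agent.H5.Constr

/-! Elementary abelian TI-subgroups `V` which are maximal abelian normal in `N(V)`. -/

set_option autoImplicit false
set_option linter.unusedSectionVars false

namespace TI

open Cfsg Subgroup FT H4 GW
open scoped commutatorElement

variable {G : Type*} [Group G] [Finite G] {U V W A B : Subgroup G} {a b c d g u v w x y z : G}

abbrev Qv (V : Subgroup G) : Subgroup G := pCoreIn 2 (Nor V)

def Pv (V : Subgroup G) : Subgroup G := Qv V ⊓ Cen V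

structure TV (V : Subgroup G) : Prop where
  sq : ∀ v ∈ V, v * v = 1
  ne : V ≠ ⊥
  fs : Nor V ⊓ Cen (Qv V) ≤ Qv V
  max : ∀ A, V ≤ A → A ≤ Nor V → (∀ a ∈ A, ∀ b ∈ A, a * b = b * a) → Nor V ≤ Nor A → A ≤ V
  ti : ∀ x, conjS x V = V ∨ conjS x V ⊓ V = ⊥

theorem conj_Nor (g : G) (V : Subgroup G) : conjS g (Nor V) = Nor (conjS g V) :=
  conjS_normalizer g V

theorem conj_Qv (g : G) (V : Subgroup G) : conjS g (Qv V) = Qv (conjS g V) := by
  rw [conjS_pCoreIn, conj_Nor]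

theorem conj_Pv (g : G) (V : Subgroup G) : conjS g (Pv V) = Pv (conjS g V) := by
  rw [Pv, conjS_inf, conj_Qv, conjS_centralizer, Pv]

theorem Pv_le_cen : Pv V ≤ Cen V := inf_le_right

theorem Pv_le_nor : Pv V ≤ Nor V := cnor inf_le_right

theorem nPv : Nor V ≤ Nor (Pv V) := ninf (le_normalizer_pCoreIn _ _) (ncen le_rfl)

theorem two_Pv : IsPGroup 2 (Pv V) := (isPGroup_pCoreIn 2 _).to_le inf_le_left

theorem pc (hx : x ∈ Pv V) (hv : v ∈ V) : x * v = v * x := GW.cen.mp (Pv_le_cen hx) v hv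

theorem comm_of_sq (h : ∀ v ∈ V, v * v = 1) (ha : a ∈ V) (hb : b ∈ V) : a * b = b * a := by
  rw [← inv_eq_of_mul_eq_one_right (h _ (mul_mem ha hb)), mul_inv_rev,
    inv_eq_of_mul_eq_one_right (h a ha), inv_eq_of_mul_eq_one_right (h b hb)]

theorem exists_of_inj (hc : Nat.card V ≤ Nat.card U) {f : G → G} (h1 : ∀ u ∈ U, f u ∈ V)
    (h2 : ∀ u ∈ U, ∀ u' ∈ U, f u = f u' → u = u') (hv : v ∈ V) : ∃ u ∈ U, f u = v := by
  obtain ⟨u, hu⟩ := (Function.Injective.bijective_of_nat_card_le (f := fun u : U => (⟨f u, h1 u u.2⟩ : V))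
    (fun a b e => Subtype.ext (h2 _ a.2 _ b.2 (congrArg Subtype.val e))) hc).2 ⟨v, hv⟩
  exact ⟨u, u.2, congrArg Subtype.val hu⟩

namespace TV

variable (h : TV V)
include h

theorem comm (ha : a ∈ V) (hb : b ∈ V) : a * b = b * a := comm_of_sq h.sq ha hb

theorem inv (hv : v ∈ V) : v⁻¹ = v := inv_eq_of_mul_eq_one_right (h.sq v hv)

theorem ex : ∃ v ∈ V, v ≠ 1 := (bot_or_exists_ne_one V).resolve_left h.ne

theorem conj (g : G) : TV (conjS g V) := by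
  refine ⟨fun v hv => ?_, fun e => h.ne (conjS_injective g (e.trans (Subgroup.map_bot _).symm)), ?_, fun A h1 h2 h3 h4 => ?_, fun x => ?_⟩
  · rw [show v * v = g * (g⁻¹ * v * g * (g⁻¹ * v * g)) * g⁻¹ by group, h.sq _ (mem_conjS.mp hv),
      mul_one, mul_inv_cancel]
  · rw [← conj_Qv, ← conj_Nor, Cen, ← conjS_centralizer, ← conjS_inf]
    exact conjS_mono g h.fs
  · rw [← conjS_conjS_inv g A] at h1 h2 h4 ⊢
    rw [← conj_Nor] at h2
    rw [← conj_Nor, ← conj_Nor] at h4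
    rw [conjS_le_conjS_iff] at h1 h2 h4 ⊢
    refine h.max _ h1 h2 (fun a ha b hb => ?_) h4
    have := h3 _ (mem_conjS.mp ha) _ (mem_conjS.mp hb)
    rwa [inv_inv, conj_mul, conj_mul, mul_left_inj, mul_right_inj] at this
  · rw [conjS_conjS, show x * g = g * (g⁻¹ * x * g) by group, ← conjS_conjS, ← conjS_inf]
    exact (h.ti _).imp (fun e => by rw [e]) fun e => by rw [e, conjS, Subgroup.map_bot]

theorem nor_of (hv : v ∈ V) (v1 : v ≠ 1) (hx : x * v * x⁻¹ ∈ V) : x ∈ Nor V :=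
  mem_normalizer_iff_conjS.mpr ((h.ti x).resolve_right fun e =>
    v1 (by simpa using e.le ⟨conj_mem_conjS hv, hx⟩))

theorem nor_of_comm (hv : v ∈ V) (v1 : v ≠ 1) (hx : x * v = v * x) : x ∈ Nor V :=
  h.nor_of hv v1 (by rwa [hx, mul_inv_cancel_right])

theorem le_P : V ≤ Pv V :=
  le_inf (le_pCoreIn le_normalizer le_rfl fun v => ⟨1, Subtype.ext (by simp [pow_two, h.sq v v.2])⟩)
    fun v hv => GW.cen.mpr fun w hw => h.comm hv hw

theorem ZP (hz : z ∈ Pv V) (hc : ∀ x ∈ Pv V, z * x = x * z) : z ∈ V :=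
  h.max (Pv V ⊓ Cen (Pv V)) (le_inf h.le_P (le_cen_symm Pv_le_cen)) (inf_le_left.trans Pv_le_nor)
    (fun _ ha _ hb => GW.cen.mp ha.2 _ hb.1) (ninf nPv (ncen nPv)) ⟨hz, GW.cen.mpr hc⟩

/-- the centralizer of `P / V` in `N(V)` -/
def K (V : Subgroup G) : Subgroup G where
  carrier := {m | m ∈ Nor V ∧ ∀ x ∈ Pv V, ⁅m, x⁆ ∈ V}
  one_mem' := ⟨one_mem _, fun x _ => by simp⟩
  mul_mem' := fun {a b} ha hb => ⟨mul_mem ha.1 hb.1, fun x hx =>
    H5.mem_of_eq (mul_mem (cmem ha.1 (hb.2 x hx)) (ha.2 x hx))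
      (by simp only [commutatorElement_def]; group)⟩
  inv_mem' := fun {a} ha => ⟨inv_mem ha.1, fun x hx =>
    H5.mem_of_eq (inv_mem (cmem' ha.1 (ha.2 x hx))) (by simp only [commutatorElement_def]; group)⟩

omit h in
theorem nK : Nor V ≤ Nor (K V) := fun m hm => mnor fun k hk =>
  ⟨cmem (le_normalizer hm) hk.1, fun x hx => H5.mem_of_eq (cmem hm (hk.2 _ (cmem' (nPv hm) hx)))
    (by simp only [commutatorElement_def]; group)⟩

theorem cen_Z2 : Pv V ⊓ Cen (Pv V ⊓ K V) ≤ V := by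
  by_contra c
  have n : Nor V ≤ Nor (Pv V ⊓ K V) := ninf nPv nK
  obtain ⟨y, hy, y1, y2, -⟩ := H7.exists_central_mod (p := 2) two_Pv inf_le_left
    (Pv_le_nor.trans (ninf nPv (ncen n))) c
  exact y1 (h.max ((Pv V ⊓ K V) ⊓ Cen (Pv V ⊓ K V)) (le_inf (le_inf h.le_P fun v hv =>
    ⟨le_normalizer hv, fun x hx => by
      rw [commutatorElement_eq_one_iff_mul_comm.mpr (pc hx hv).symm]; exact one_mem _⟩)
    (le_cen_symm (inf_le_left.trans Pv_le_cen))) (inf_le_left.trans (inf_le_left.trans Pv_le_nor))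
    (fun _ ha _ hb => GW.cen.mp ha.2 _ hb.1) (ninf n (ncen n)) ⟨⟨hy.1, Pv_le_nor hy.1, y2⟩, hy.2⟩)

theorem act (hz : z ∈ Pv V ⊓ K V) (hx : x ∈ Pv V) : ∃ v ∈ V, x * z = z * v * x :=
  ⟨_, cmem' (Pv_le_nor hz.1) (inv_mem (hz.2.2 x hx)), by simp only [commutatorElement_def]; group⟩

theorem sqP (hx : x ∈ Pv V) : x * x ∈ V :=
  h.cen_Z2 ⟨mul_mem hx hx, GW.cen.mpr fun z hz => by
    obtain ⟨v, hv, e⟩ := h.act hz hx
    rw [mul_assoc, e, ← mul_assoc, ← mul_assoc, e, mul_assoc _ x v, pc hx hv, mul_assoc z,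
      ← mul_assoc v, h.sq v hv, one_mul, mul_assoc]⟩

theorem cm (hx : x ∈ Pv V) (hy : y ∈ Pv V) : ⁅x, y⁆ ∈ V :=
  H5.mem_of_eq (mul_mem (mul_mem (h.sqP (mul_mem hx hy)) (cmem' (Pv_le_nor hy)
    (inv_mem (h.sqP hx)))) (inv_mem (h.sqP hy))) (by simp only [commutatorElement_def]; group)

theorem cj (hx : x ∈ Pv V) (hy : y ∈ Pv V) : ∃ v ∈ V, x * y * x⁻¹ = v * y :=
  ⟨_, h.cm hx hy, by simp [commutatorElement_def]⟩

theorem nor_of_le (h1 : V ≤ W) (h2 : W ≤ Pv V) : Pv V ≤ Nor W := fun x hx => mnor fun w hw => by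
  obtain ⟨v, hv, e⟩ := h.cj hx (h2 hw)
  exact e ▸ mul_mem (h1 hv) hw

theorem mem_P (hc : x ∈ Cen V) (hk : ∀ y ∈ Pv V, ⁅x, y⁆ ∈ V) : x ∈ Pv V := by
  refine ⟨le_pCoreIn (N := K V ⊓ Cen V) (fun _ hx => hx.1.1) (ninf nK (ncen le_rfl)) ?_
    ⟨⟨mcnor hc, hk⟩, hc⟩, hc⟩
  refine H5.isPGroup_of_forall_prime fun k hk ho => ?_
  have o : ∀ {P : Subgroup G}, IsPGroup 2 P → (Nat.card (zpowers k)).Coprime (Nat.card P) :=
    fun hP => by
      obtain ⟨n, hn⟩ := H7.card_eq_pow_of_le hP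
      rw [Nat.card_zpowers, hn]; exact ho.pow_right n
  have kN : zpowers k ≤ Nor V := zpowers_le.mpr hk.1.1
  have nQ := kN.trans (le_normalizer_pCoreIn 2 _)
  have c1 : Pv V ≤ Cen (zpowers k) := H5.le_centralizer_of_commutator_le (kN.trans nPv)
    (o two_Pv) (Or.inl (solv_zp k)) (N := V)
    (by rw [commutator_comm]; exact commutator_le.mpr fun a ha x hx =>
      (zpowers_le.mpr hk.1 ha).2 x hx) (le_cen_symm (zpowers_le.mpr hk.2))
  have c2 : Qv V ≤ Cen (zpowers k) := H5.le_centralizer_of_commutator_le nQ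
    (o (isPGroup_pCoreIn 2 _)) (Or.inl (solv_zp k)) (le_inf
      (H5.commutator_le_left_of_le_normalizer nQ) (by
        rw [commutator_comm]
        exact (commutator_mono (zpowers_le.mpr hk.2) le_rfl).trans
          (H5.commutator_le_left_of_le_normalizer ((pCoreIn_le _ _).trans (ncen le_rfl))))) c1
  exact (inf_eq_bot_of_coprime' (o (isPGroup_pCoreIn 2 _))).le
    ⟨mem_zpowers k, h.fs ⟨hk.1.1, le_cen_symm c2 (mem_zpowers k)⟩⟩

end TV

end TI
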