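import Cfsg.Agent.TI.V1

/-! A conjugate `U` of `V` inside `O₂(N(V))`; then `V` lies in `O₂(N(U))`. -/

set_option autoImplicit false
set_option linter.unusedSectionVars false

namespace TI

open Cfsg Subgroup FT H4 GW
open scoped commutatorElement

variable {G : Type*} [Group G] [Finite G] {U V W A B : Subgroup G} {a b c d g u v w x y z : G}

theorem TV.cen_of_nor (h : TV V) (h1 : conjS x V ≠ V) (h2 : conjS x V ≤ Nor V) :
    conjS x V ≤ Cen V := by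
  have dj := (h.ti x).resolve_left h1
  refine le_cen_symm fun v hv => GW.cen.mpr fun u hu => ?_
  by_cases c : v ∈ Nor (conjS x V)
  · exact commutatorElement_eq_one_iff_mul_comm.mp (dj.le (mem_inf.mpr ⟨mul_mem (cmem c hu)
      (inv_mem hu), H5.mem_of_eq (mul_mem hv (cmem (h2 hu) (inv_mem hv))) (by
        simp only [commutatorElement_def]; group)⟩))
  obtain ⟨a, -, e⟩ := exists_of_inj (card_conjS x V).ge (f := fun a => a * v * a⁻¹)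
    (fun a ha => cmem (h2 ha) hv) (fun a ha b hb e => by
      by_contra c'
      exact c ((h.conj x).nor_of_comm (mul_mem (inv_mem hb) ha) (fun e => c' (inv_mul_eq_one.mp e).symm)
        (by rw [show v * (b⁻¹ * a) = b⁻¹ * (b * v * b⁻¹) * a by group, ← e]; group))) (one_mem V)
  rw [show v = 1 by simpa using e, mul_one, one_mul]

structure Pr (V U : Subgroup G) : Prop where
  tv : TV V
  cj : ∃ x, conjS x V = U
  ne : U ≠ V
  le : U ≤ Pv V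

namespace Pr

variable (h : Pr V U)
include h

theorem tv' : TV U := h.cj.elim fun x e => e ▸ h.tv.conj x

theorem card : Nat.card U = Nat.card V := h.cj.elim fun x e => e ▸ card_conjS x V

theorem dj (hu : a ∈ U) (hv : a ∈ V) : a = 1 := by
  obtain ⟨x, rfl⟩ := h.cj
  exact ((h.tv.ti x).resolve_left h.ne).le ⟨hu, hv⟩

theorem uv (hu : u ∈ U) (hv : v ∈ V) : u * v = v * u := pc (h.le hu) hv

theorem conj (g : G) : Pr (conjS g V) (conjS g U) := by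
  obtain ⟨x, rfl⟩ := h.cj
  exact ⟨h.tv.conj g, ⟨g * x * g⁻¹, by simp [conjS_conjS]⟩, fun e => h.ne (conjS_injective g e),
    conj_Pv g V ▸ conjS_mono g h.le⟩

theorem conj_nor (hg : g ∈ Nor V) : Pr V (conjS g U) := by
  simpa only [mem_normalizer_iff_conjS.mp hg] using h.conj g

theorem eq_of (h' : ∃ x, conjS x V = A) (ha : a ∈ A) (hu : a ∈ U) (a1 : a ≠ 1) : A = U := by
  obtain ⟨x, rfl⟩ := h.cj
  obtain ⟨y, rfl⟩ := h'
  have := (h.tv.conj x).ti (y * x⁻¹)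
  rw [conjS_conjS, inv_mul_cancel_right] at this
  exact this.resolve_right fun e => a1 (e.le ⟨ha, hu⟩)

theorem cen_of_nor (hx : x ∈ Pv V) (hn : x ∈ Nor U) : x ∈ Cen U := GW.cen.mpr fun _ hu =>
  commutatorElement_eq_one_iff_mul_comm.mp
    (h.dj (mul_mem (cmem hn hu) (inv_mem hu)) (h.tv.cm hx (h.le hu)))

theorem cen_of (hx : x ∈ Pv V) (hu : u ∈ U) (u1 : u ≠ 1) (e : x * u = u * x) : x ∈ Cen U :=
  h.cen_of_nor hx (h.tv'.nor_of_comm hu u1 e)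

theorem cen_of' (hx : x ∈ Pv V) (hy : y ∈ Pv V) (hu : u ∈ U) (u1 : u ≠ 1)
    (e : x * u * x⁻¹ = y * u * y⁻¹) : y⁻¹ * x ∈ Cen U :=
  h.cen_of (mul_mem (inv_mem hy) hx) hu u1 (by
    rw [show u * (y⁻¹ * x) = y⁻¹ * (y * u * y⁻¹) * x by group, ← e]; group)

theorem surj (hx : x ∈ Pv V) (hc : x ∉ Cen U) (hv : v ∈ V) : ∃ u ∈ U, x * u * x⁻¹ = v * u := by
  obtain ⟨u, hu, e⟩ := exists_of_inj h.card.ge (f := fun u => ⁅x, u⁆)
    (fun u hu => h.tv.cm hx (h.le hu)) (fun a ha b hb e => by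
      by_contra c
      refine hc (h.cen_of hx (mul_mem (inv_mem hb) ha) (fun e => c (inv_mul_eq_one.mp e).symm) ?_)
      have e1 : x * a * x⁻¹ = ⁅x, b⁆ * a := by rw [← e]; simp [commutatorElement_def]
      rw [show x * (b⁻¹ * a) = (⁅x, b⁆ * b)⁻¹ * (x * a * x⁻¹) * x by
        simp only [commutatorElement_def]; group, e1]
      group) hv
  exact ⟨u, hu, by rw [← e]; simp [commutatorElement_def]⟩

theorem exB : ∃ B, Pr V B ∧ ∀ b ∈ B, b ∈ Cen U → b = 1 := by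
  by_contra! c
  have k : ∀ m ∈ Nor V, conjS m U ≤ Cen U := fun m hm => by
    obtain ⟨b, hb, b1, b2⟩ := c _ (h.conj_nor hm)
    exact le_cen_symm fun u hu => (h.conj_nor hm).cen_of (h.le hu) hb b2 (GW.cen.mp b1 u hu).symm
  set N := V ⊔ ⨆ m ∈ Nor V, conjS m U
  have n : Nor V ≤ Nor N := nsup le_rfl fun m hm => mem_normalizer_of_conjS_le (by
    simp only [conjS, Subgroup.map_iSup]
    refine iSup₂_le fun a ha => le_iSup₂_of_le (m * a) (mul_mem hm ha) (conjS_conjS m a U).le)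
  have NP : N ≤ Pv V := sup_le h.tv.le_P (iSup₂_le fun m hm => (h.conj_nor hm).le)
  obtain ⟨u, hu, u1⟩ := h.tv'.ex
  exact u1 (h.dj hu (h.tv.max (N ⊓ Cen N) (le_inf le_sup_left (le_cen_symm (NP.trans Pv_le_cen)))
    (inf_le_left.trans (NP.trans Pv_le_nor)) (fun _ ha _ hb => GW.cen.mp ha.2 _ hb.1)
    (ninf n (ncen n)) ⟨mem_sup_right ((le_iSup₂_of_le 1 (one_mem _) (conjS_one U).ge :
      U ≤ ⨆ m ∈ Nor V, conjS m U) hu), le_cen_symm (sup_le (le_cen_symm (h.le.trans Pv_le_cen))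
        (iSup₂_le k)) hu⟩))

theorem surjB (hB : Pr V B) (nc : ∀ b ∈ B, b ∈ Cen U → b = 1) (hu : u ∈ U) (u1 : u ≠ 1)
    (hv : v ∈ V) : ∃ b ∈ B, b * u * b⁻¹ = v * u := by
  obtain ⟨b, hb, b1⟩ := hB.tv'.ex
  obtain ⟨b, hb, e⟩ := hB.surj (h.le hu) (fun c => b1 (nc b hb
    (h.cen_of (hB.le hb) hu u1 (GW.cen.mp c b hb).symm))) (inv_mem hv)
  exact ⟨b, hb, by rw [show v = b * (v⁻¹ * b)⁻¹ by group, ← e]; group⟩

theorem surjP (hu : u ∈ U) (u1 : u ≠ 1) (hv : v ∈ V) : ∃ x ∈ Pv V, x * u * x⁻¹ = v * u := by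
  obtain ⟨B, hB, nc⟩ := h.exB
  obtain ⟨b, hb, e⟩ := h.surjB hB nc hu u1 hv
  exact ⟨b, hB.le hb, e⟩

theorem dec (hB : Pr V B) (nc : ∀ b ∈ B, b ∈ Cen U → b = 1) (hx : x ∈ Pv V) :
    ∃ b ∈ B, ∃ c ∈ Pv V ⊓ Cen U, x = b * c := by
  obtain ⟨u, hu, u1⟩ := h.tv'.ex
  obtain ⟨v, hv, e⟩ := h.tv.cj hx (h.le hu)
  obtain ⟨b, hb, e'⟩ := h.surjB hB nc hu u1 hv
  exact ⟨b, hb, _, mem_inf.mpr ⟨mul_mem (inv_mem (hB.le hb)) hx, h.cen_of' hx (hB.le hb) hu u1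
    (e.trans e'.symm)⟩, by group⟩

theorem memW : w ∈ V ⊔ U ↔ ∃ v ∈ V, ∃ u ∈ U, v * u = w :=
  H7.mem_sup_of_le_normalizer_left (h.le.trans Pv_le_nor)

theorem W_le : V ⊔ U ≤ Pv V := sup_le h.tv.le_P h.le

theorem nW : Pv V ≤ Nor (V ⊔ U) := h.tv.nor_of_le le_sup_left h.W_le

theorem sqW (hw : w ∈ V ⊔ U) : w * w = 1 := by
  obtain ⟨v, hv, u, hu, rfl⟩ := h.memW.mp hw
  rw [mul_assoc, ← mul_assoc u, h.uv hu hv, mul_assoc, h.tv'.sq u hu, mul_one, h.tv.sq v hv]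

theorem spread (hw : w ∈ V ⊔ U) (hw' : w ∉ V) : ∃ x ∈ Pv V, w ∈ conjS x U := by
  obtain ⟨v, hv, u, hu, rfl⟩ := h.memW.mp hw
  obtain ⟨x, hx, e⟩ := h.surjP hu (fun e => hw' (by simpa [e] using hv)) hv
  exact ⟨x, hx, e ▸ conj_mem_conjS hu⟩

theorem fixV (hy : y ∈ Cen U) (hv : v ∈ V) (v1 : v ≠ 1) (e : y * v = v * y) : y ∈ Cen V := by
  obtain ⟨B, hB, nc⟩ := h.exB
  obtain ⟨x, hx, x1⟩ := hB.tv'.ex
  have xc : x ∉ Cen U := fun c => x1 (nc x hx c)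
  have key : ∀ a ∈ V, ∀ u ∈ U, x * u * x⁻¹ = a * u →
      y * x * y⁻¹ * u * (y * x * y⁻¹)⁻¹ = y * a * y⁻¹ * u := fun a _ u hu e => by
    have := GW.cen.mp hy u hu
    calc _ = y * (x * (y⁻¹ * (u * y)) * x⁻¹) * y⁻¹ := by group
      _ = y * a * y⁻¹ * (y * u) * y⁻¹ := by rw [← this, inv_mul_cancel_left, e]; group
      _ = _ := by rw [this]; group
  obtain ⟨u, hu, e1⟩ := h.surj (hB.le hx) xc hv
  have c := h.cen_of' (cmem (nPv (h.tv.nor_of_comm hv v1 e)) (hB.le hx)) (hB.le hx) hu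
    (fun e => v1 (by simpa [e] using e1.symm)) (by rw [key v hv u hu e1, e1, e, mul_inv_cancel_right])
  refine GW.cen.mpr fun a ha => ?_
  obtain ⟨u, hu, e1⟩ := h.surj (hB.le hx) xc ha
  have := key a ha u hu e1
  rw [show y * x * y⁻¹ = x * (x⁻¹ * (y * x * y⁻¹)) by group, mul_assoc x, GW.cen.mp c u hu,
    mul_inv_rev, ← mul_assoc, ← mul_assoc, mul_inv_cancel_right, e1] at this
  rw [← mul_inv_eq_iff_eq_mul, mul_right_cancel this.symm]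

theorem le_of (hy : y ∈ Pv U) (hv : v ∈ V) (hu : u ∈ U) (u1 : u ≠ 1) (e : y * v * y⁻¹ = u * v) :
    V ≤ Pv U := by
  have w1 : u * v ∉ V := fun c => u1 (h.dj hu ((mul_mem_cancel_right hv).mp c))
  obtain ⟨x, hx, e1⟩ := h.spread (mul_mem (mem_sup_right hu) (mem_sup_left hv)) w1
  have e2 : conjS y V = conjS x U := (h.conj_nor (Pv_le_nor hx)).eq_of ⟨y, rfl⟩
    (e ▸ conj_mem_conjS hv) e1 fun c => w1 (c ▸ one_mem _)
  have n : y ∈ Nor (V ⊔ U) := mem_normalizer_of_conjS_le (by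
    rw [conjS_sup, e2, mem_normalizer_iff_conjS.mp (Pv_le_nor hy)]
    exact sup_le ((conjS_mono x le_sup_right).trans (mem_normalizer_iff_conjS.mp (h.nW hx)).le)
      le_sup_right)
  have e3 : conjS (x⁻¹ * y) V = U := by rw [← conjS_conjS, e2, conjS_inv_conjS]
  rw [← e3, ← conj_Pv]
  nth_rewrite 1 [← conjS_one V]
  exact ((conjS_one V).le.trans le_sup_left).trans ((mem_normalizer_iff_conjS.mp
    (mul_mem (inv_mem (h.nW hx)) n)).ge.trans (conjS_mono _ h.W_le))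

theorem ZC (hz : z ∈ Pv V) (hc : ∀ c ∈ Pv V ⊓ Cen U, z * c = c * z) : z ∈ V ⊔ U := by
  obtain ⟨B, hB, nc⟩ := h.exB
  obtain ⟨x, hx, x1⟩ := hB.tv'.ex
  obtain ⟨v, hv, e⟩ := h.tv.cj (hB.le hx) hz
  obtain ⟨u, hu, e1⟩ := h.surj (hB.le hx) (fun c => x1 (nc x hx c)) hv
  have m := mul_mem (inv_mem (h.le hu)) hz
  have c := hB.cen_of m hx x1 (by
    rw [show x * (u⁻¹ * z) = (x * u * x⁻¹)⁻¹ * (x * z * x⁻¹) * x by group, e, e1]; group)
  refine H5.mem_of_eq (mul_mem (mem_sup_right hu) (mem_sup_left (h.tv.ZP m fun y hy => ?_)))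
    (by group)
  obtain ⟨b, hb, d, hd, rfl⟩ := h.dec hB nc hy
  rw [← mul_assoc, GW.cen.mp c b hb, mul_assoc b, mul_assoc b, mul_assoc u⁻¹, hc d hd,
    ← mul_assoc u⁻¹, ← GW.cen.mp hd.2 _ (inv_mem hu), mul_assoc d]

theorem cenW (hC : Pv V ⊓ Cen U ≤ V ⊔ U) (hy : y ∈ V ⊔ U) (y1 : y ∉ V) (hx : x ∈ Pv V)
    (e : x * y = y * x) : x ∈ V ⊔ U := by
  obtain ⟨v, hv, u, hu, rfl⟩ := h.memW.mp hy
  refine hC ⟨hx, h.cen_of hx hu (fun e => y1 (by simpa [e] using hv)) (mul_left_cancel (a := v) ?_)⟩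
  rw [← mul_assoc, ← pc hx hv, mul_assoc, e, mul_assoc]

/-- structure of `P` when `C_P(U) = V U` -/
theorem str (hC : Pv V ⊓ Cen U ≤ V ⊔ U) : ∃ B, Pr V B ∧ Pv V ⊓ Cen B ≤ V ⊔ B ∧
    (V ⊔ U) ⊓ (V ⊔ B) ≤ V ∧ ∀ y ∈ Pv V, y * y = 1 → y ∈ V ⊔ U ∨ y ∈ V ⊔ B := by
  obtain ⟨B, hB, nc⟩ := h.exB
  have k : ∀ u ∈ U, u ∈ Cen B → u = 1 := fun u hu c => by
    by_contra u1
    obtain ⟨b, hb, b1⟩ := hB.tv'.ex
    exact b1 (nc b hb (h.cen_of (hB.le hb) hu u1 (GW.cen.mp c b hb).symm))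
  have vB : V ≤ Cen B := le_cen_symm (hB.le.trans Pv_le_cen)
  have BB : B ≤ Cen B := fun b hb => GW.cen.mpr fun a ha => hB.tv'.comm hb ha
  refine ⟨B, hB, fun x hx => ?_, fun x hx => ?_, fun y hy e => ?_⟩
  · obtain ⟨b, hb, c, hc, rfl⟩ := h.dec hB nc hx.1
    obtain ⟨v, hv, u, hu, rfl⟩ := h.memW.mp (hC hc)
    rw [k u hu ((mul_mem_cancel_left (vB hv)).mp ((mul_mem_cancel_left (BB hb)).mp hx.2)), mul_one]
    exact mul_mem (mem_sup_right hb) (mem_sup_left hv)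
  · obtain ⟨v, hv, u, hu, rfl⟩ := h.memW.mp hx.1
    rwa [k u hu ((mul_mem_cancel_left (vB hv)).mp (sup_le vB BB hx.2)), mul_one]
  · obtain ⟨b, hb, c, hc, rfl⟩ := h.dec hB nc hy
    by_cases b1 : b = 1
    · exact Or.inl (by simpa [b1] using hC hc)
    refine Or.inr (mul_mem (mem_sup_right hb) ?_)
    obtain ⟨v, hv, u, hu, rfl⟩ := h.memW.mp (hC hc)
    have := hB.cen_of hc.1 hb b1 (by
      rw [← inv_eq_of_mul_eq_one_right e, mul_inv_rev, hB.tv'.inv hb,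
        inv_eq_of_mul_eq_one_right (h.sqW (hC hc))])
    rw [k u hu ((mul_mem_cancel_left (vB hv)).mp this), mul_one]
    exact mem_sup_left hv

theorem symm : Pr U V := by
  obtain ⟨g, hg⟩ := h.cj
  refine ⟨h.tv', ⟨g⁻¹, by rw [← hg, conjS_inv_conjS]⟩, h.ne.symm, ?_⟩
  by_contra c
  have vU : V ≤ Cen U := le_cen_symm (h.le.trans Pv_le_cen)
  have nP : ∀ {x}, x ∈ Cen U → x ∈ Nor (Pv U) := fun hx => nPv (mcnor hx)
  have st : ∀ y ∈ Pv U, ∀ v ∈ V, v ≠ 1 → ⁅y, v⁆ ∈ U → y ∈ Cen V := fun y hy v hv v1 hm => by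
    by_contra c'
    exact c (h.le_of hy hv hm (fun e => c' (h.fixV (Pv_le_cen hy) hv v1
      (commutatorElement_eq_one_iff_mul_comm.mp e))) (by simp [commutatorElement_def]))
  have v0 : ∀ v ∈ V, v ∈ Pv U → v = 1 := fun v hv hv' => by
    by_contra v1
    exact v1 (h.dj (h.tv'.ZP hv' fun y hy =>
      (GW.cen.mp (st y hy v hv v1 (h.tv'.cm hy hv')) v hv).symm) hv)
  have cd : ∀ c ∈ Pv V ⊓ Cen U, ∀ d ∈ Pv U ⊓ Cen V, ⁅c, d⁆ ∈ U := fun c hc d hd => by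
    have h1 : ⁅c, d⁆ ∈ Pv U := mul_mem (cmem (nP hc.2) hd.1) (inv_mem hd.1)
    have h2 : ⁅c, d⁆ ∈ Pv V := H5.mem_of_eq (mul_mem hc.1 (cmem (nPv (mcnor hd.2)) (inv_mem hc.1)))
      (by simp only [commutatorElement_def]; group)
    obtain ⟨v, hv, u, hu, e⟩ := h.memW.mp (h.ZC h2 fun a ha =>
      (commutatorElement_eq_one_iff_mul_comm.mp (v0 _ (h.tv.cm ha.1 h2)
        (mul_mem (cmem (nP ha.2) h1) (inv_mem h1)))).symm)
    rw [← e] at h1 ⊢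
    rwa [v0 v hv ((mul_mem_cancel_right (h.tv'.le_P hu)).mp h1), one_mul]
  obtain ⟨v, hv, v1⟩ := h.tv.ex
  have vv := h.tv.inv hv
  have cP : ∀ y ∈ Pv U, ⁅y, v⁆ ∈ Pv U := fun y hy => H5.mem_of_eq (mul_mem hy (cmem (nP (vU hv))
    (inv_mem hy))) (by simp only [commutatorElement_def]; group)
  have sq : ∀ y : G, ⁅⁅y, v⁆, v⁆ = ⁅y, v⁆ * ⁅y, v⁆ := fun y => by
    simp only [commutatorElement_def, mul_inv_rev, inv_inv, vv, mul_assoc]
    rw [← mul_assoc v v, h.tv.sq v hv, one_mul]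
  have yD : ∀ y ∈ Pv U, ⁅y, v⁆ ∈ Pv U ⊓ Cen V := fun y hy =>
    ⟨cP y hy, st _ (cP y hy) v hv v1 (sq y ▸ h.tv'.sqP (cP y hy))⟩
  have cy : ∀ c ∈ Pv V ⊓ Cen U, ∀ y ∈ Pv U, ⁅y⁻¹, c⁆ ∈ Pv U ⊓ Cen V := fun c hc y hy => by
    have h1 : ⁅y⁻¹, c⁆ ∈ Pv U := H5.mem_of_eq (mul_mem (inv_mem hy) (cmem (nP hc.2) hy))
      (by simp only [commutatorElement_def]; group)
    refine ⟨h1, st _ h1 v hv v1 (H5.mem_of_eq (cmem' (Pv_le_nor hy) (cd c hc _ (yD y hy))) ?_)⟩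
    have e : c⁻¹ * v * c = v := by rw [mul_assoc, ← pc hc.1 hv, inv_mul_cancel_left]
    calc _ = y⁻¹ * c * y * v * y⁻¹ * c⁻¹ * (c * v⁻¹ * c⁻¹ * v) * y * v⁻¹ := by
          simp only [commutatorElement_def]; group
      _ = y⁻¹ * c * y * (c⁻¹ * v * c) * y⁻¹ * c⁻¹ * y * v⁻¹ := by
          rw [e, vv, pc hc.1 hv, mul_inv_cancel_right, h.tv.sq v hv, mul_one]
      _ = _ := by simp only [commutatorElement_def]; group
  have hC : Pv V ⊓ Cen U ≤ V ⊔ U := fun a ha => h.ZC ha.1 fun b hb => by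
    refine inv_mul_eq_one.mp (v0 _ (H5.mem_of_eq (h.tv.cm (inv_mem hb.1) (inv_mem ha.1))
      (by simp only [commutatorElement_def]; group)) (h.tv'.mem_P (mul_mem (inv_mem
        (mul_mem ha.2 hb.2)) (mul_mem hb.2 ha.2)) fun y hy => ?_))
    have d1 := cy b hb y hy
    have d2 := cy a ha y hy
    exact H5.mem_of_eq (cmem (mul_mem (inv_mem (mcnor (mul_mem ha.2 hb.2))) (Pv_le_nor hy))
      (mul_mem (mul_mem (cmem (Pv_le_nor d1.1) (cd b hb _ d2)) (h.tv'.cm d1.1 d2.1))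
        (cmem (Pv_le_nor d2.1) (inv_mem (cd a ha _ d1))))) (by
          simp only [commutatorElement_def]; group)
  have h2 := h.conj g
  have hC' := conjS_mono g hC
  rw [conjS_inf, conj_Pv, conjS_centralizer, conjS_sup] at hC'
  rw [hg] at h2 hC'
  obtain ⟨y, hy, y1⟩ : ∃ y ∈ Pv U, y ∉ Cen V := by
    by_contra! c'
    exact v1 (v0 v hv (h.tv'.mem_P (vU hv) fun y hy => by
      rw [commutatorElement_eq_one_iff_mul_comm.mpr (GW.cen.mp (c' y hy) v hv).symm]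
      exact one_mem _))
  have key : ∀ A B, Pr U A → Pr U B → Pv U ⊓ Cen A ≤ U ⊔ A → (U ⊔ A) ⊓ (U ⊔ B) ≤ U →
      (∀ y ∈ Pv U, y * y = 1 → y ∈ U ⊔ A ∨ y ∈ U ⊔ B) → ⁅y, v⁆ ∉ U ⊔ A := by
    intro A B hA hB h1 h2 h3 h4
    have hD : Pv U ⊓ Cen V ≤ U ⊔ A := fun d hd => by
      refine hA.cenW h1 h4 (fun c => y1 (st y hy v hv v1 c)) hd.1 ?_
      obtain ⟨u, hu, e⟩ := h.tv'.cj hd.1 hy
      have e1 : d * v * d⁻¹ = v := by rw [GW.cen.mp hd.2 v hv, mul_inv_cancel_right]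
      rw [← mul_inv_eq_iff_eq_mul, conjugate_commutatorElement, e, e1, ← pc hy hu]
      simp only [commutatorElement_def, mul_assoc, mul_inv_rev]
      rw [← mul_assoc u, h.uv hu hv, mul_assoc, mul_inv_cancel_left]
    obtain ⟨b, hb, b1⟩ := hB.tv'.ex
    have b2 : b ∉ U ⊔ A := fun c => b1 (hB.dj hb (h2 ⟨c, mem_sup_right hb⟩))
    have b3 := yD b (hB.le hb)
    have e : v * b⁻¹ * v⁻¹ = b⁻¹ * ⁅b, v⁆ := by simp only [commutatorElement_def]; group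
    rcases h3 _ (cmem (nP (vU hv)) (inv_mem (hB.le hb))) (by
      rw [conj_mul, hB.tv'.inv hb, hB.tv'.sq b hb, mul_one, mul_inv_cancel]) with c | c
    · exact b2 (inv_mem_iff.mp ((mul_mem_cancel_right (hD b3)).mp (e ▸ c)))
    · exact b2 (hD ⟨hB.le hb, st b (hB.le hb) v hv v1 (h2 ⟨hD b3, (mul_mem_cancel_left
        (inv_mem (mem_sup_right hb))).mp (e ▸ c)⟩)⟩)
  obtain ⟨B, hB, h3, h4, h5⟩ := h2.str hC'
  rcases h5 _ (cP y hy) (by
    rw [← sq, commutatorElement_eq_one_iff_mul_comm, GW.cen.mp (yD y hy).2 v hv]) with c | c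
  · exact key _ B h2 hB hC' h4 h5 c
  · exact key B _ hB h2 h3 (fun _ hx => h4 ⟨hx.2, hx.1⟩) (fun y hy e => (h5 y hy e).symm) c

end Pr

end TI
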